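import Mathlib

/-! Cyclic extensions of a finite abelian group, in the form used for metacyclic covers. -/

set_option autoImplicit false

namespace Cfsg.Agent.Lib.Metacyc

/-- The cyclic extension of a finite abelian group `A` by an automorphism `β` of finite
order dividing `n` and a fixed point `s` of `β`: a group with `A` as a subgroup and an extra
element `b` acting as `β` with `b ^ n = s`. -/
theorem cyc_ext {A : Type} [CommGroup A] [Finite A] (β : A →* A) (s : A) (hs : β s = s)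
    (n : ℕ) (hn : 0 < n) (hβ : ∀ u, β^[n] u = u) :
    ∃ (Γ : Type) (_ : Group Γ) (_ : Finite Γ) (ι : A →* Γ) (b : Γ),
      Function.Injective ι ∧ (∀ u, b * ι u * b⁻¹ = ι (β u)) ∧ b ^ n = ι s ∧
      (∀ g, ∃ (u : A) (j : ℤ), g = ι u * b ^ j) ∧
      (∀ (u : A) (j : ℤ), ι u = b ^ j → (n : ℤ) ∣ j) := by
  classical
  obtain ⟨n', rfl⟩ : ∃ n', n = n' + 1 := ⟨n - 1, by omega⟩
  have hl : ∀ u, β^[n'] (β u) = u := by
    intro u
    have := hβ u
    rwa [Function.iterate_succ_apply] at this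
  have hr : ∀ u, β (β^[n'] u) = u := by
    intro u
    have := hβ u
    rwa [Function.iterate_succ_apply'] at this
  let β' : A ≃* A :=
    { toFun := β
      invFun := β^[n']
      left_inv := hl
      right_inv := hr
      map_mul' := β.map_mul }
  have hβ'pow : ∀ (j : ℕ) (u : A), (β' ^ j) u = β^[j] u := by
    intro j
    induction j with
    | zero => intro u; rfl
    | succ j ih =>
      intro u
      rw [pow_succ', Function.iterate_succ_apply']
      show β ((β' ^ j) u) = _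
      rw [ih]
  have hβ'n : β' ^ (n' + 1) = 1 := by
    ext u
    rw [hβ'pow, hβ u]
    rfl
  let φ : Multiplicative ℤ →* MulAut A := zpowersHom (MulAut A) β'
  have hφ1 : ∀ u, φ (Multiplicative.ofAdd 1) u = β u := by
    intro u
    simp [φ, zpowersHom_apply, β']
  have hφn : φ (Multiplicative.ofAdd ((n' + 1 : ℕ) : ℤ)) = 1 := by
    simp only [φ, zpowersHom_apply, toAdd_ofAdd, zpow_natCast]
    exact hβ'n
  let C := SemidirectProduct A (Multiplicative ℤ) φ
  let j₀ : A →* C := SemidirectProduct.inl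
  let t₀ : Multiplicative ℤ →* C := SemidirectProduct.inr
  let b₀ : C := t₀ (Multiplicative.ofAdd 1)
  let τ : C := j₀ s⁻¹ * t₀ (Multiplicative.ofAdd ((n' + 1 : ℕ) : ℤ))
  have hconj : ∀ (z : Multiplicative ℤ) (u : A), t₀ z * j₀ u * (t₀ z)⁻¹ = j₀ (φ z u) := by
    intro z u
    have h := (SemidirectProduct.inl_aut (φ := φ) z u)
    simp only [j₀, t₀, map_inv]
    simpa only [map_inv] using h.symm
  have hb₀ : ∀ u, b₀ * j₀ u * b₀⁻¹ = j₀ (β u) := by
    intro u
    rw [hconj, hφ1]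
  have hcomm : ∀ u v : A, j₀ u * j₀ v = j₀ v * j₀ u := by
    intro u v
    rw [← map_mul, ← map_mul, mul_comm]
  -- τ is central
  have hτu : ∀ u, τ * j₀ u = j₀ u * τ := by
    intro u
    have h1 := hconj (Multiplicative.ofAdd ((n' + 1 : ℕ) : ℤ)) u
    rw [hφn] at h1
    have h2 : t₀ (Multiplicative.ofAdd ((n' + 1 : ℕ) : ℤ)) * j₀ u =
        j₀ u * t₀ (Multiplicative.ofAdd ((n' + 1 : ℕ) : ℤ)) := by
      have : j₀ ((1 : MulAut A) u) = j₀ u := rfl
      rw [this] at h1
      exact mul_inv_eq_iff_eq_mul.mp h1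
    simp only [τ]
    rw [mul_assoc, h2, ← mul_assoc, hcomm, mul_assoc]
  have hτb : τ * b₀ = b₀ * τ := by
    have h1 : b₀ * j₀ s⁻¹ * b₀⁻¹ = j₀ s⁻¹ := by
      rw [hb₀, map_inv, hs]
    have h2 : b₀ * j₀ s⁻¹ = j₀ s⁻¹ * b₀ := mul_inv_eq_iff_eq_mul.mp h1
    have h3 : t₀ (Multiplicative.ofAdd ((n' + 1 : ℕ) : ℤ)) * b₀ =
        b₀ * t₀ (Multiplicative.ofAdd ((n' + 1 : ℕ) : ℤ)) := by
      simp only [b₀, ← map_mul, mul_comm]
    simp only [τ]
    rw [mul_assoc, h3, ← mul_assoc, ← h2, mul_assoc]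
  have hgen : ∀ x : C, x = j₀ x.left * b₀ ^ (Multiplicative.toAdd x.right) := by
    intro x
    have h1 : b₀ ^ (Multiplicative.toAdd x.right) = t₀ x.right := by
      simp only [b₀]
      rw [← map_zpow]
      congr 1
      apply Multiplicative.toAdd.injective
      simp
    rw [h1]
    exact (SemidirectProduct.inl_left_mul_inr_right x).symm
  have hτcent : ∀ x : C, τ * x = x * τ := by
    intro x
    rw [hgen x]
    have h1 : ∀ j : ℤ, τ * b₀ ^ j = b₀ ^ j * τ := by
      intro j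
      exact ((Commute.zpow_right (show Commute τ b₀ from hτb) j))
    rw [← mul_assoc, hτu, mul_assoc, h1, mul_assoc]
  let N : Subgroup C := Subgroup.zpowers τ
  have hNc : N ≤ Subgroup.center C := by
    rw [Subgroup.zpowers_le]
    rw [Subgroup.mem_center_iff]
    intro g
    exact (hτcent g).symm
  haveI hNn : N.Normal := by
    constructor
    intro x hx g
    have hc : x ∈ Subgroup.center C := hNc hx
    rw [Subgroup.mem_center_iff] at hc
    rw [hc g, mul_assoc, mul_inv_cancel, mul_one]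
    exact hx
  let q : C →* C ⧸ N := QuotientGroup.mk' N
  have hq : ∀ x, q x = 1 ↔ x ∈ N := by
    intro x
    exact QuotientGroup.eq_one_iff x
  let R : C →* Multiplicative ℤ := SemidirectProduct.rightHom
  have hR_j : ∀ u, R (j₀ u) = 1 := fun u => SemidirectProduct.rightHom_inl u
  have hR_t : ∀ z, R (t₀ z) = z := fun z => SemidirectProduct.rightHom_inr z
  have hRτ : R τ = Multiplicative.ofAdd ((n' + 1 : ℕ) : ℤ) := by
    simp only [τ, map_mul, hR_j, hR_t, one_mul]
  have hRb : R b₀ = Multiplicative.ofAdd 1 := hR_t _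
  have hrightN : ∀ i : ℤ, Multiplicative.toAdd (R (τ ^ i)) = ((n' + 1 : ℕ) : ℤ) * i := by
    intro i
    rw [map_zpow, hRτ, toAdd_zpow, toAdd_ofAdd, smul_eq_mul, mul_comm]
  have hι : ∀ u, q (j₀ u) = 1 → u = 1 := by
    intro u hu
    rw [hq] at hu
    obtain ⟨i', hi'⟩ := hu
    have hi'' : τ ^ i' = j₀ u := hi'
    have h2 := hrightN i'
    rw [hi'', hR_j] at h2
    have h4 : i' = 0 := by
      have hne : ((n' + 1 : ℕ) : ℤ) ≠ 0 := by positivity
      have h5 : ((n' + 1 : ℕ) : ℤ) * i' = 0 := h2.symm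
      rcases mul_eq_zero.mp h5 with h | h
      · exact absurd h hne
      · exact h
    rw [h4, zpow_zero] at hi''
    exact SemidirectProduct.inl_injective (by rw [← hi'']; simp)
  have hbn : q b₀ ^ (n' + 1) = q (j₀ s) := by
    have h1 : b₀ ^ (n' + 1) = t₀ (Multiplicative.ofAdd ((n' + 1 : ℕ) : ℤ)) := by
      simp only [b₀]
      rw [← map_pow]
      congr 1
    rw [← map_pow, h1]
    have h2 : (j₀ s)⁻¹ * t₀ (Multiplicative.ofAdd ((n' + 1 : ℕ) : ℤ)) = τ := by
      simp only [τ, map_inv]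
    have h3 : q τ = 1 := (hq τ).2 (Subgroup.mem_zpowers τ)
    rw [← h2, map_mul, map_inv] at h3
    exact (inv_mul_eq_one.mp h3).symm
  have hgenQ : ∀ g : C ⧸ N, ∃ (u : A) (j : ℤ), g = q (j₀ u) * q b₀ ^ j := by
    intro g
    obtain ⟨x, rfl⟩ := QuotientGroup.mk'_surjective N g
    refine ⟨x.left, Multiplicative.toAdd x.right, ?_⟩
    show q x = _
    conv_lhs => rw [hgen x]
    rw [map_mul, map_zpow]
  have hfin : Finite (C ⧸ N) := by
    have hsurj : Function.Surjective (fun p : A × Fin (n' + 1) => q (j₀ p.1) * q b₀ ^ (p.2 : ℕ)) := by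
      intro g
      obtain ⟨u, j, rfl⟩ := hgenQ g
      have hj : j = ((n' + 1 : ℕ) : ℤ) * (j / ((n' + 1 : ℕ) : ℤ)) + ((j % ((n' + 1 : ℕ) : ℤ)).toNat : ℤ) := by
        have h0 : 0 ≤ j % ((n' + 1 : ℕ) : ℤ) := Int.emod_nonneg _ (by positivity)
        rw [Int.toNat_of_nonneg h0]
        exact (Int.mul_ediv_add_emod _ _).symm
      have hlt : (j % ((n' + 1 : ℕ) : ℤ)).toNat < n' + 1 := by
        have h0 : 0 ≤ j % ((n' + 1 : ℕ) : ℤ) := Int.emod_nonneg _ (by positivity)
        have h1 : j % ((n' + 1 : ℕ) : ℤ) < ((n' + 1 : ℕ) : ℤ) := Int.emod_lt_of_pos _ (by positivity)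
        omega
      refine ⟨(u * s ^ (j / ((n' + 1 : ℕ) : ℤ)), ⟨_, hlt⟩), ?_⟩
      simp only
      conv_rhs => rw [hj]
      rw [zpow_add, zpow_mul, zpow_natCast, hbn, zpow_natCast, map_mul, map_mul, map_zpow, map_zpow, mul_assoc]
    exact Finite.of_surjective _ hsurj
  refine ⟨C ⧸ N, inferInstance, hfin, q.comp j₀, q b₀, ?_, ?_, hbn, hgenQ, ?_⟩
  · rw [injective_iff_map_eq_one]
    exact hι
  · intro u
    show q b₀ * q (j₀ u) * (q b₀)⁻¹ = q (j₀ (β u))
    rw [← hb₀, map_mul, map_mul, map_inv]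
  · intro u j h
    have h1 : q ((j₀ u)⁻¹ * b₀ ^ j) = 1 := by
      rw [map_mul, map_inv, map_zpow]
      have : q (j₀ u) = q b₀ ^ j := h
      rw [this, inv_mul_cancel]
    rw [hq] at h1
    obtain ⟨i, hi⟩ := h1
    have hi' : τ ^ i = (j₀ u)⁻¹ * b₀ ^ j := hi
    have h2 := hrightN i
    rw [hi', map_mul, map_inv, hR_j, map_zpow, hRb, inv_one, one_mul, toAdd_zpow, toAdd_ofAdd,
      smul_eq_mul, mul_one] at h2
    exact ⟨i, h2⟩

end Cfsg.Agent.Lib.Metacyc
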