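import Mathlib

/-! The abelian normal subgroup of the covering group of a metacyclic group. -/

set_option autoImplicit false

namespace Cfsg.Agent.Lib.Metacyc

open Multiplicative in
theorem model_A (m k n r d : ℕ) (hm : 0 < m) (hk : 0 < k) (hkd : k ∣ d) (X W : ℤ)
    (hXW : X * ((r : ℤ) - 1) + W * m = d) (hrn : (m : ℤ) ∣ (r : ℤ) ^ n - 1)
    (hσ : ((m * k : ℕ) : ℤ) ∣ d * ∑ i ∈ Finset.range n, (r : ℤ) ^ i) :
    ∃ (A : Type) (_ : CommGroup A) (_ : Finite A) (β : A →* A) (a z : A),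
      (∀ u, ∃ i e : ℤ, u = a ^ i * z ^ e) ∧ a ^ (m : ℤ) = z ^ X ∧ orderOf z = k ∧
      β a = a ^ (r : ℤ) * z ^ W ∧ β z = z ∧ (∀ i e : ℤ, a ^ i * z ^ e = 1 → (m : ℤ) ∣ i) ∧
      (∀ u, β^[n] u = u) := by
  classical
  haveI : NeZero m := ⟨hm.ne'⟩
  haveI : NeZero (m * k) := ⟨(Nat.mul_pos hm hk).ne'⟩
  -- the map `u ↦ d * u`
  have hdm : ((d : ZMod (m * k))) * (((m : ℤ) : ℤ) : ZMod (m * k)) = 0 := by
    have : ((d * m : ℕ) : ZMod (m * k)) = 0 := by
      rw [ZMod.natCast_eq_zero_iff]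
      obtain ⟨c, rfl⟩ := hkd
      exact ⟨c, by ring⟩
    simpa using this
  let f₀ : ℤ →+ ZMod (m * k) := (AddMonoidHom.mulLeft (d : ZMod (m * k))).comp (Int.castAddHom _)
  have hf₀ : f₀ (m : ℤ) = 0 := hdm
  let dt : ZMod m →+ ZMod (m * k) := ZMod.lift m ⟨f₀, hf₀⟩
  have hdt : ∀ i : ℤ, dt (i : ZMod m) = (d : ZMod (m * k)) * (i : ZMod (m * k)) := by
    intro i
    have := ZMod.lift_coe (n := m) (A := ZMod (m * k)) ⟨f₀, hf₀⟩ i
    exact this
  let βb : ZMod m × ZMod (m * k) →+ ZMod m × ZMod (m * k) :=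
    { toFun := fun p => ((r : ZMod m) * p.1, p.2 + dt p.1)
      map_zero' := by simp
      map_add' := by
        intro p q
        ext <;> simp [mul_add] <;> ring }
  have hβb : ∀ p, βb p = ((r : ZMod m) * p.1, p.2 + dt p.1) := fun p => rfl
  have hiter : ∀ (j : ℕ) (p : ZMod m × ZMod (m * k)), βb^[j] p =
      ((r : ZMod m) ^ j * p.1, p.2 + dt ((∑ i ∈ Finset.range j, (r : ZMod m) ^ i) * p.1)) := by
    intro j
    induction j with
    | zero => intro p; simp
    | succ j ih =>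
      intro p
      rw [Function.iterate_succ_apply', ih, hβb]
      ext
      · simp [pow_succ]; ring
      · simp only [Finset.sum_range_succ, add_mul, map_add]
        abel
  have hβbn : ∀ p, βb^[n] p = p := by
    intro p
    rw [hiter]
    have h1 : (r : ZMod m) ^ n = 1 := by
      have : (((r : ℤ) ^ n - 1 : ℤ) : ZMod m) = 0 := (ZMod.intCast_zmod_eq_zero_iff_dvd _ _).2 hrn
      push_cast at this
      exact sub_eq_zero.mp this
    obtain ⟨u, v⟩ := p
    obtain ⟨i, rfl⟩ := ZMod.intCast_surjective u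
    have h2 : (∑ x ∈ Finset.range n, (r : ZMod m) ^ x) * (i : ZMod m) =
        (((∑ x ∈ Finset.range n, (r : ℤ) ^ x) * i : ℤ) : ZMod m) := by
      push_cast; rfl
    simp only
    rw [h1, one_mul, h2, hdt]
    have h3 : (d : ZMod (m * k)) * (((∑ x ∈ Finset.range n, (r : ℤ) ^ x) * i : ℤ) : ZMod (m * k)) = 0 := by
      have : (((d * ∑ x ∈ Finset.range n, (r : ℤ) ^ x) * i : ℤ) : ZMod (m * k)) = 0 := by
        rw [ZMod.intCast_zmod_eq_zero_iff_dvd]
        exact Dvd.dvd.mul_right hσ _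
      push_cast at this ⊢
      rw [← mul_assoc]
      exact this
    rw [h3, add_zero]
  let B := Multiplicative (ZMod m × ZMod (m * k))
  let βt : B →* B := AddMonoidHom.toMultiplicative βb
  have hβt : ∀ p : ZMod m × ZMod (m * k), βt (ofAdd p) = ofAdd (βb p) := fun p => rfl
  let a₀ : B := ofAdd ((1 : ZMod m), (X : ZMod (m * k)))
  let z₀ : B := ofAdd ((0 : ZMod m), (m : ZMod (m * k)))
  have ha₀pow : ∀ i : ℤ, a₀ ^ i = ofAdd ((i : ZMod m), ((i * X : ℤ) : ZMod (m * k))) := by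
    intro i
    show (ofAdd _) ^ i = _
    rw [← ofAdd_zsmul]
    congr 1
    ext <;> simp
  have hz₀pow : ∀ e : ℤ, z₀ ^ e = ofAdd ((0 : ZMod m), ((e * m : ℤ) : ZMod (m * k))) := by
    intro e
    show (ofAdd _) ^ e = _
    rw [← ofAdd_zsmul]
    congr 1
    ext <;> simp
  have hβa : βt a₀ = a₀ ^ (r : ℤ) * z₀ ^ W := by
    rw [ha₀pow, hz₀pow, ← ofAdd_add]
    show ofAdd ((r : ZMod m) * 1, (X : ZMod (m * k)) + dt 1) = _
    congr 1
    have h1 : dt (1 : ZMod m) = (d : ZMod (m * k)) := by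
      have := hdt 1
      simpa using this
    ext
    · simp
    · simp only [Prod.snd_add]
      rw [h1]
      have h2 : ((d : ℤ) : ZMod (m * k)) = ((X * ((r : ℤ) - 1) + W * m : ℤ) : ZMod (m * k)) := by
        rw [hXW]
      have h3 : ((d : ℤ) : ZMod (m * k)) = (d : ZMod (m * k)) := by simp
      rw [← h3, h2]
      push_cast
      ring
  have hβz : βt z₀ = z₀ := by
    show ofAdd (βb _) = _
    rw [hβb]
    simp [z₀]
  let A : Subgroup B := Subgroup.closure {a₀, z₀}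
  have ha₀A : a₀ ∈ A := Subgroup.subset_closure (by simp)
  have hz₀A : z₀ ∈ A := Subgroup.subset_closure (by simp)
  have hAform : ∀ u : B, u ∈ A ↔ ∃ i e : ℤ, a₀ ^ i * z₀ ^ e = u := by
    intro u
    exact Subgroup.mem_closure_pair
  have hβA : ∀ u ∈ A, βt u ∈ A := by
    intro u hu
    obtain ⟨i, e, rfl⟩ := (hAform u).1 hu
    rw [map_mul, map_zpow, map_zpow, hβa, hβz]
    exact A.mul_mem (A.zpow_mem (A.mul_mem (A.zpow_mem ha₀A _) (A.zpow_mem hz₀A _)) _) (A.zpow_mem hz₀A _)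
  let β : ↥A →* ↥A := (βt.comp A.subtype).codRestrict A (fun u => hβA u u.2)
  have hβcoe : ∀ u : ↥A, ((β u : ↥A) : B) = βt u := fun u => rfl
  have hβiter : ∀ (j : ℕ) (u : ↥A), ((β^[j] u : ↥A) : B) = ofAdd (βb^[j] (toAdd (u : B))) := by
    intro j
    induction j with
    | zero => intro u; rfl
    | succ j ih =>
      intro u
      rw [Function.iterate_succ_apply', hβcoe, ih, hβt, Function.iterate_succ_apply']
  refine ⟨↥A, inferInstance, inferInstance, β, ⟨a₀, ha₀A⟩, ⟨z₀, hz₀A⟩, ?_, ?_, ?_, ?_, ?_, ?_, ?_⟩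
  · intro u
    obtain ⟨i, e, hie⟩ := (hAform u).1 u.2
    exact ⟨i, e, Subtype.ext hie.symm⟩
  · apply Subtype.ext
    show a₀ ^ (m : ℤ) = z₀ ^ X
    rw [ha₀pow, hz₀pow]
    congr 1
    ext
    · simp
    · push_cast; ring
  · have h1 : ∀ j : ℕ, (⟨z₀, hz₀A⟩ : ↥A) ^ j = 1 ↔ k ∣ j := by
      intro j
      have h2 : (⟨z₀, hz₀A⟩ : ↥A) ^ j = 1 ↔ z₀ ^ ((j : ℤ)) = 1 := by
        rw [zpow_natCast]
        exact Subtype.ext_iff
      rw [h2, hz₀pow]
      have h3 : (ofAdd ((0 : ZMod m), (((j : ℤ) * m : ℤ) : ZMod (m * k))) : B) = 1 ↔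
          (((j * m : ℕ)) : ZMod (m * k)) = 0 := by
        constructor
        · intro h
          have h4 : ((0 : ZMod m), (((j : ℤ) * m : ℤ) : ZMod (m * k))) = 0 := ofAdd_eq_one.mp h
          have h5 := congrArg Prod.snd h4
          simpa using h5
        · intro h
          apply ofAdd_eq_one.mpr
          ext
          · rfl
          · simpa using h
      rw [h3, ZMod.natCast_eq_zero_iff]
      constructor
      · intro h
        rw [mul_comm j m] at h
        exact (Nat.mul_dvd_mul_iff_left hm).1 h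
      · intro h
        rw [mul_comm j m]
        exact Nat.mul_dvd_mul_left m h
    apply Nat.dvd_antisymm
    · exact orderOf_dvd_of_pow_eq_one ((h1 k).2 dvd_rfl)
    · exact (h1 _).1 (pow_orderOf_eq_one _)
  · apply Subtype.ext
    show βt a₀ = a₀ ^ (r : ℤ) * z₀ ^ W
    exact hβa
  · apply Subtype.ext
    exact hβz
  · intro i e h
    have h1 : a₀ ^ i * z₀ ^ e = 1 := congrArg Subtype.val h
    rw [ha₀pow, hz₀pow, ← ofAdd_add] at h1
    have h2 := congrArg Prod.fst (ofAdd_eq_one.mp h1)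
    simp only [Prod.fst_add, add_zero, Prod.fst_zero] at h2
    exact (ZMod.intCast_zmod_eq_zero_iff_dvd _ _).1 h2
  · intro u
    apply Subtype.ext
    rw [hβiter, hβbn]
    rfl

end Cfsg.Agent.Lib.Metacyc
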