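import Mathlib
import Cfsg.Agent.Lib.Metacyc.Ext
import Cfsg.Agent.Lib.Metacyc.ModelA

/-! The covering group of a metacyclic group, and the arithmetic of its parameters. -/

set_option autoImplicit false

namespace Cfsg.Agent.Lib.Metacyc

/-- The arithmetic of the parameters of a metacyclic group. -/
theorem arith (m n r l : ℕ) (hm : 0 < m) (hr : 0 < r) (hrn : r ^ n ≡ 1 [MOD m]) :
    ∃ m' r' s' d : ℕ, d = Nat.gcd m (r - 1) ∧ m = m' * d ∧ r - 1 = r' * d ∧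
      (∑ i ∈ Finset.range n, r ^ i) = m' * s' ∧ Nat.Coprime m' r' ∧ m * l / d = m' * l ∧
      Nat.gcd l (d * Nat.gcd m (∑ i ∈ Finset.range n, r ^ i) / m) = Nat.gcd l (Nat.gcd d s') ∧
      (m : ℤ) ∣ (r : ℤ) ^ n - 1 := by
  obtain ⟨m', r', hco, hm', hr'⟩ := Nat.exists_coprime m (r - 1)
  set d := Nat.gcd m (r - 1) with hd
  have hdpos : 0 < d := Nat.gcd_pos_of_pos_left _ hm
  have hm'pos : 0 < m' := by
    rcases Nat.eq_zero_or_pos m' with h | h
    · rw [h, zero_mul] at hm'; omega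
    · exact h
  have hdvd : (m : ℤ) ∣ (r : ℤ) ^ n - 1 := by
    have h := (Nat.modEq_iff_dvd.mp hrn.symm)
    push_cast at h
    exact h
  have hgeom : ((r : ℤ) - 1) * ((∑ i ∈ Finset.range n, r ^ i : ℕ) : ℤ) = (r : ℤ) ^ n - 1 := by
    push_cast
    rw [mul_comm]
    exact geom_sum_mul _ _
  have hrcast : (r : ℤ) - 1 = ((r - 1 : ℕ) : ℤ) := by
    rw [Nat.cast_sub hr]; simp
  rw [← hgeom, hrcast] at hdvd
  have hdvd' : m ∣ (r - 1) * ∑ i ∈ Finset.range n, r ^ i := by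
    exact_mod_cast hdvd
  have hm's : m' ∣ ∑ i ∈ Finset.range n, r ^ i := by
    have h1 : m' * d ∣ r' * d * ∑ i ∈ Finset.range n, r ^ i := by
      rw [← hm', ← hr']; exact hdvd'
    have h2 : d * m' ∣ d * (r' * ∑ i ∈ Finset.range n, r ^ i) := by
      calc d * m' = m' * d := mul_comm _ _
        _ ∣ r' * d * ∑ i ∈ Finset.range n, r ^ i := h1
        _ = d * (r' * ∑ i ∈ Finset.range n, r ^ i) := by ring
    have h3 := (Nat.mul_dvd_mul_iff_left hdpos).1 h2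
    exact hco.dvd_of_dvd_mul_left h3
  obtain ⟨s', hs'⟩ := hm's
  refine ⟨m', r', s', d, rfl, hm', hr', hs', hco, ?_, ?_, ?_⟩
  · conv_lhs => rw [hm']
    rw [mul_assoc, mul_comm d l, ← mul_assoc]
    exact Nat.mul_div_cancel _ hdpos
  · congr 1
    have h1 : Nat.gcd m (∑ i ∈ Finset.range n, r ^ i) = m' * Nat.gcd d s' := by
      rw [hs']
      conv_lhs => rw [hm']
      rw [Nat.gcd_mul_left]
    rw [h1]
    conv_lhs => rw [show d * (m' * Nat.gcd d s') = m * Nat.gcd d s' by rw [hm']; ring]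
    exact Nat.mul_div_cancel_left _ hm
  · have h := (Nat.modEq_iff_dvd.mp hrn.symm)
    push_cast at h
    exact h

/-- The explicit covering group of the metacyclic group. -/
theorem model (m n r l m' r' s' d k : ℕ) (hm : 0 < m) (hn : 0 < n) (hr : 0 < r) (hk : 0 < k)
    (hmd : m = m' * d) (hrd : r - 1 = r' * d)
    (hσ : (∑ i ∈ Finset.range n, r ^ i) = m' * s') (hkd : k ∣ d) (hkl : k ∣ l) (hks : k ∣ s')
    (hrn : (m : ℤ) ∣ (r : ℤ) ^ n - 1) (X W : ℤ) (hXW : X * r' + W * m' = 1) :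
    ∃ (Γ : Type) (_ : Group Γ) (_ : Finite Γ) (a b z : Γ),
      (∀ g, g * z = z * g) ∧ a ^ (m : ℤ) = z ^ X ∧ orderOf z = k ∧
      b * a * b⁻¹ = a ^ (r : ℤ) * z ^ W ∧ b ^ n = a ^ (((m' * l : ℕ)) : ℤ) ∧
      (∀ g, ∃ i e j : ℤ, g = a ^ i * z ^ e * b ^ j) ∧
      (∀ i e j : ℤ, a ^ i * z ^ e = b ^ j → (n : ℤ) ∣ j) ∧
      (∀ i e : ℤ, a ^ i * z ^ e = 1 → (m : ℤ) ∣ i) := by
  have hrc : (r : ℤ) - 1 = r' * d := by
    have : ((r - 1 : ℕ) : ℤ) = (r : ℤ) - 1 := by rw [Nat.cast_sub hr]; simp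
    rw [← this, hrd]; push_cast; ring
  have hmc : (m : ℤ) = m' * d := by rw [hmd]; push_cast; ring
  have hXW' : X * ((r : ℤ) - 1) + W * m = d := by
    rw [hrc, hmc]
    linear_combination (d : ℤ) * hXW
  have hσ' : ((m * k : ℕ) : ℤ) ∣ d * ∑ i ∈ Finset.range n, (r : ℤ) ^ i := by
    have h1 : (∑ i ∈ Finset.range n, (r : ℤ) ^ i) = ((m' * s' : ℕ) : ℤ) := by
      rw [← hσ]; push_cast; rfl
    rw [h1]
    obtain ⟨c, rfl⟩ := hks
    refine ⟨c, ?_⟩
    rw [hmd]; push_cast; ring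
  obtain ⟨A, _, _, β, a, z, hgenA, ham, hz, hβa, hβz, hdiv, hiter⟩ :=
    model_A m k n r d hm hk hkd X W hXW' hrn hσ'
  have hzk : z ^ (k : ℤ) = 1 := by
    rw [zpow_natCast, ← hz]; exact pow_orderOf_eq_one z
  have hzl : z ^ (l : ℤ) = 1 := by
    obtain ⟨c, rfl⟩ := hkl
    push_cast
    rw [zpow_mul, hzk, one_zpow]
  have hβzp : ∀ e : ℤ, β (z ^ e) = z ^ e := by
    intro e; rw [map_zpow, hβz]
  have hs : β (a ^ (((m' * l : ℕ)) : ℤ)) = a ^ (((m' * l : ℕ)) : ℤ) := by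
    rw [map_zpow, hβa, mul_zpow, ← zpow_mul, ← zpow_mul]
    have h1 : a ^ ((r : ℤ) * ((m' * l : ℕ) : ℤ)) =
        a ^ (((m' * l : ℕ)) : ℤ) * (a ^ (m : ℤ)) ^ ((r' : ℤ) * l) := by
      rw [← zpow_mul, ← zpow_add]
      congr 1
      have hr1 : (r : ℤ) = r' * d + 1 := by rw [← hrc]; ring
      rw [hr1, hmc]; push_cast; ring
    rw [h1, ham, ← zpow_mul, mul_assoc, ← zpow_add]
    have h2 : X * ((r' : ℤ) * l) + W * ((m' * l : ℕ) : ℤ) = l := by
      push_cast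
      linear_combination (l : ℤ) * hXW
    rw [h2, hzl, mul_one]
  obtain ⟨Γ, _, hfin, ι, b, hι, hbι, hbn, hgen, hdn⟩ := cyc_ext β _ hs n hn hiter
  refine ⟨Γ, inferInstance, hfin, ι a, b, ι z, ?_, ?_, ?_, ?_, ?_, ?_, ?_, ?_⟩
  · intro g
    obtain ⟨u, j, rfl⟩ := hgen g
    have h1 : Commute (ι z) b := by
      have h2 := hbι z
      rw [hβz] at h2
      exact (mul_inv_eq_iff_eq_mul.mp h2).symm
    have h3 : Commute (ι z) (ι u) := by
      show ι z * ι u = ι u * ι z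
      rw [← map_mul, ← map_mul, mul_comm]
    exact ((h3.mul_right (h1.zpow_right j))).symm.eq
  · rw [← map_zpow, ← map_zpow, ham]
  · rw [orderOf_injective ι hι, hz]
  · rw [hbι, hβa, map_mul, map_zpow, map_zpow]
  · rw [hbn, map_zpow]
  · intro g
    obtain ⟨u, j, rfl⟩ := hgen g
    obtain ⟨i, e, rfl⟩ := hgenA u
    exact ⟨i, e, j, by rw [map_mul, map_zpow, map_zpow]⟩
  · intro i e j h
    apply hdn (a ^ i * z ^ e) j
    rw [map_mul, map_zpow, map_zpow, h]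
  · intro i e h
    apply hdiv i e
    apply hι
    rw [map_mul, map_zpow, map_zpow, h, map_one]

end Cfsg.Agent.Lib.Metacyc
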