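import Mathlib
import Cfsg.Prelude.Def_KGroupFacts
import Cfsg.Agent.Lib.Metacyc.Model

/-! The Schur multiplier of a metacyclic group given by generators and relations. -/

set_option autoImplicit false

namespace Cfsg.Agent.Lib.Metacyc

open scoped commutatorElement

/-- Normal forms in a group generated by `a`, `b` with `a ^ m = 1`, `b a b⁻¹ = a ^ r`. -/
theorem normal_form {G : Type} [Group G] (a b : G) (m n r : ℕ) (hn : 0 < n)
    (ha : a ^ m = 1) (hab : b * a * b⁻¹ = a ^ r) (hrn : (m : ℤ) ∣ (r : ℤ) ^ n - 1)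
    (hgen : Subgroup.closure ({a, b} : Set G) = ⊤) (g : G) :
    ∃ i j : ℤ, g = a ^ i * b ^ j := by
  have hconj : ∀ i : ℤ, b * a ^ i * b⁻¹ = a ^ ((r : ℤ) * i) := by
    intro i
    rw [← conj_zpow, hab, zpow_mul, zpow_natCast]
  have hamz : ∀ x : ℤ, (m : ℤ) ∣ x → a ^ x = 1 := by
    rintro x ⟨c, rfl⟩
    rw [zpow_mul, zpow_natCast, ha, one_zpow]
  have hconj' : ∀ i : ℤ, b⁻¹ * a ^ i * b = a ^ ((r : ℤ) ^ (n - 1) * i) := by
    intro i
    have h1 : b * a ^ ((r : ℤ) ^ (n - 1) * i) * b⁻¹ = a ^ i := by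
      rw [hconj]
      have h2 : (r : ℤ) * ((r : ℤ) ^ (n - 1) * i) = i + ((r : ℤ) ^ n - 1) * i := by
        obtain ⟨n', rfl⟩ : ∃ n', n = n' + 1 := ⟨n - 1, by omega⟩
        simp only [Nat.add_sub_cancel]
        ring
      rw [h2, zpow_add, hamz _ (Dvd.dvd.mul_right hrn i), mul_one]
    rw [← h1]
    group
  have hg : g ∈ Subgroup.closure ({a, b} : Set G) := by rw [hgen]; trivial
  induction hg using Subgroup.closure_induction_left with
  | one => exact ⟨0, 0, by simp⟩
  | mul_left x hx y _ ih =>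
    obtain ⟨i, j, rfl⟩ := ih
    rcases hx with rfl | hx
    · exact ⟨i + 1, j, by group⟩
    · rw [Set.mem_singleton_iff] at hx
      subst hx
      refine ⟨(r : ℤ) * i, j + 1, ?_⟩
      rw [← hconj]
      group
  | inv_mul_cancel x hx y _ ih =>
    obtain ⟨i, j, rfl⟩ := ih
    rcases hx with rfl | hx
    · exact ⟨i - 1, j, by group⟩
    · rw [Set.mem_singleton_iff] at hx
      subst hx
      refine ⟨(r : ℤ) ^ (n - 1) * i, j - 1, ?_⟩
      rw [← hconj']
      group

/-- The lower bound: the explicit stem extension, and the order of the generator `a`. -/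
theorem exists_cover {G : Type} [Group G] (a b : G) (m n r l m' r' s' d k : ℕ)
    (hm : 0 < m) (hn : 0 < n) (hr : 0 < r) (hk : 0 < k)
    (hmd : m = m' * d) (hrd : r - 1 = r' * d)
    (hσ : (∑ i ∈ Finset.range n, r ^ i) = m' * s') (hkd : k ∣ d) (hkl : k ∣ l) (hks : k ∣ s')
    (hrn : (m : ℤ) ∣ (r : ℤ) ^ n - 1) (hco : Nat.Coprime m' r')
    (ha : a ^ m = 1) (hb : b ^ n = a ^ (m' * l)) (hab : b * a * b⁻¹ = a ^ r)
    (hgen : Subgroup.closure ({a, b} : Set G) = ⊤)
    (huniv : ∀ (Q : Type) [Group Q] (x y : Q), x ^ m = 1 → y ^ n = x ^ (m' * l) →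
      y * x * y⁻¹ = x ^ r → ∃ f : G →* Q, f a = x ∧ f b = y) :
    (∃ (Γ : Type) (_ : Group Γ) (_ : Finite Γ) (σ : Γ →* G), Cfsg.IsStemExtension σ ∧
      Nonempty (σ.ker ≃* Multiplicative (ZMod k))) ∧
    (∀ x : ℤ, a ^ x = 1 → (m : ℤ) ∣ x) := by
  classical
  obtain ⟨X, W, hXW⟩ : ∃ X W : ℤ, X * r' + W * m' = 1 := by
    have h := (Nat.isCoprime_iff_coprime.mpr hco)
    obtain ⟨u, v, huv⟩ := h
    exact ⟨v, u, by linarith⟩
  obtain ⟨Γ, _, hfin, A, B, z, hzc, hAm, hzo, hBA, hBn, hgenΓ, hdn, hdm⟩ :=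
    model m n r l m' r' s' d k hm hn hr hk hmd hrd hσ hkd hkl hks hrn X W hXW
  let N : Subgroup Γ := Subgroup.zpowers z
  have hNc : ∀ x ∈ N, ∀ g, g * x = x * g := by
    rintro x ⟨e, rfl⟩ g
    exact ((Commute.zpow_right (show Commute g z from hzc g) e))
  haveI hNn : N.Normal := by
    constructor
    intro x hx g
    rw [hNc x hx g, mul_assoc, mul_inv_cancel, mul_one]
    exact hx
  let q : Γ →* Γ ⧸ N := QuotientGroup.mk' N
  have hq : ∀ x, q x = 1 ↔ x ∈ N := fun x => QuotientGroup.eq_one_iff x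
  have hqz : ∀ e : ℤ, q (z ^ e) = 1 := fun e => (hq _).2 ⟨e, rfl⟩
  obtain ⟨π, hπa, hπb⟩ := huniv (Γ ⧸ N) (q A) (q B)
    (by
      have h1 : q (A ^ (m : ℤ)) = 1 := by rw [hAm]; exact hqz X
      rwa [map_zpow, zpow_natCast] at h1)
    (by
      have h1 : q (B ^ n) = q (A ^ ((m' * l : ℕ) : ℤ)) := by rw [hBn]
      rwa [map_pow, map_zpow, zpow_natCast] at h1)
    (by
      have h1 : q (B * A * B⁻¹) = q (A ^ (r : ℤ) * z ^ W) := by rw [hBA]
      have h2 : q (A ^ (r : ℤ) * z ^ W) = q A ^ r := by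
        rw [map_mul, hqz, mul_one, map_zpow, zpow_natCast]
      have h3 : q (B * A * B⁻¹) = q B * q A * (q B)⁻¹ := by simp only [map_mul, map_inv]
      rw [← h3, h1, h2])
  have hπs : Function.Surjective π := by
    intro y
    obtain ⟨g, rfl⟩ := QuotientGroup.mk'_surjective N y
    obtain ⟨i, e, j, rfl⟩ := hgenΓ g
    refine ⟨a ^ i * b ^ j, ?_⟩
    show _ = q _
    rw [map_mul π, map_zpow, map_zpow, hπa, hπb, map_mul q, map_mul q, hqz, mul_one, map_zpow, map_zpow]
  have hπker : ∀ i : ℤ, q (A ^ i) = 1 → (m : ℤ) ∣ i := by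
    intro i h
    obtain ⟨e, he⟩ := (hq _).1 h
    have he' : z ^ e = A ^ i := he
    apply hdm i (-e)
    rw [← he', zpow_neg, mul_inv_cancel]
  have hamz : ∀ x : ℤ, (m : ℤ) ∣ x → a ^ x = 1 := by
    rintro x ⟨c, rfl⟩
    rw [zpow_mul, zpow_natCast, ha, one_zpow]
  have hπi : Function.Injective π := by
    rw [injective_iff_map_eq_one]
    intro g hg
    obtain ⟨i, j, rfl⟩ := normal_form a b m n r hn ha hab hrn hgen g
    rw [map_mul, map_zpow, map_zpow, hπa, hπb, ← map_zpow, ← map_zpow, ← map_mul] at hg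
    obtain ⟨e, he⟩ := (hq _).1 hg
    have he' : z ^ e = A ^ i * B ^ j := he
    have hcz : Commute A z := hzc A
    have hj : (n : ℤ) ∣ j := by
      apply hdn (-i) e j
      rw [he', ← mul_assoc, zpow_neg, inv_mul_cancel, one_mul]
    obtain ⟨s, rfl⟩ := hj
    have h1 : B ^ ((n : ℤ) * s) = A ^ (((m' * l : ℕ) : ℤ) * s) := by
      rw [zpow_mul, zpow_natCast, hBn, zpow_mul]
    have h2 : b ^ ((n : ℤ) * s) = a ^ (((m' * l : ℕ) : ℤ) * s) := by
      rw [zpow_mul, zpow_natCast, hb, zpow_mul, zpow_natCast]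
    rw [h1, ← zpow_add] at he'
    rw [h2, ← zpow_add]
    apply hamz
    apply hdm _ (-e)
    rw [← he', zpow_neg, mul_inv_cancel]
  let e : G ≃* Γ ⧸ N := MulEquiv.ofBijective π ⟨hπi, hπs⟩
  let σ : Γ →* G := e.symm.toMonoidHom.comp q
  have hσker : σ.ker = N := by
    ext g
    rw [MonoidHom.mem_ker]
    constructor
    · intro h
      have h1 : e.symm (q g) = 1 := h
      have h2 : q g = 1 := by
        have := congrArg e h1
        simpa using this
      exact (hq g).1 h2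
    · intro h
      show e.symm (q g) = 1
      rw [(hq g).2 h, map_one]
  have hcA : ∀ (i e' : ℤ), Commute (A ^ i) (z ^ e') := by
    intro i e'
    exact (Commute.zpow_zpow (hzc A) i e')
  have hzcomm : z ∈ commutator Γ := by
    -- `z` is a power of the commutator of `B` and `A`
    have h1 : (⁅B, A⁆ : Γ) = A ^ ((r : ℤ) - 1) * z ^ W := by
      rw [commutatorElement_def, hBA, zpow_sub, zpow_one]
      have := (hcA (r : ℤ) W)
      have h3 : Commute (z ^ W) A⁻¹ := Commute.zpow_left (show Commute z A⁻¹ from (hzc A⁻¹).symm) W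
      rw [mul_assoc, h3.eq, ← mul_assoc]
    have hrc : (r : ℤ) - 1 = r' * d := by
      have : ((r - 1 : ℕ) : ℤ) = (r : ℤ) - 1 := by rw [Nat.cast_sub hr]; simp
      rw [← this, hrd]; push_cast; ring
    have hmc : (m : ℤ) = m' * d := by rw [hmd]; push_cast; ring
    have h2 : (⁅B, A⁆ : Γ) ^ (m' : ℤ) = z := by
      rw [h1, (hcA _ _).mul_zpow, ← zpow_mul, ← zpow_mul]
      have h4 : ((r : ℤ) - 1) * m' = (m : ℤ) * r' := by rw [hrc, hmc]; ring
      rw [h4, zpow_mul, hAm, ← zpow_mul, ← zpow_add]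
      have h5 : X * (r' : ℤ) + W * m' = 1 := hXW
      rw [h5, zpow_one]
    rw [← h2]
    exact Subgroup.zpow_mem _ (Subgroup.commutator_mem_commutator (Subgroup.mem_top _) (Subgroup.mem_top _)) _
  refine ⟨⟨Γ, inferInstance, hfin, σ, ⟨?_, ?_, ?_⟩, ?_⟩, ?_⟩
  · intro y
    obtain ⟨g, hg⟩ := QuotientGroup.mk'_surjective N (e y)
    refine ⟨g, ?_⟩
    show e.symm (q g) = y
    have : q g = e y := hg
    rw [this]
    simp
  · rw [hσker]
    intro x hx
    rw [Subgroup.mem_center_iff]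
    exact fun g => hNc x hx g
  · rw [hσker]
    rw [Subgroup.zpowers_le]
    exact hzcomm
  · rw [hσker]
    have hcard : Nat.card N = k := by
      rw [Nat.card_zpowers, hzo]
    have hcyc : IsCyclic N := inferInstance
    have e₀ := zmodCyclicMulEquiv hcyc
    rw [hcard] at e₀
    exact ⟨e₀.symm⟩
  · intro x hx
    apply hπker
    have h1 := congrArg π hx
    rw [map_zpow, hπa, map_one, ← map_zpow] at h1
    exact h1

/-- The upper bound: the kernel of a stem extension of the metacyclic group is a quotient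
of the cyclic group of order `k`. -/
theorem stem_bound {G : Type} [Group G] (a b : G) (m n r l m' r' s' d k : ℕ)
    (hm : 0 < m) (hn : 0 < n) (hr : 0 < r)
    (hmd : m = m' * d) (hrd : r - 1 = r' * d)
    (hσ : (∑ i ∈ Finset.range n, r ^ i) = m' * s') (hk : k = Nat.gcd l (Nat.gcd d s'))
    (hrn : (m : ℤ) ∣ (r : ℤ) ^ n - 1) (hrn' : r ^ n ≡ 1 [MOD m]) (hco : Nat.Coprime m' r')
    (ha : a ^ m = 1) (hb : b ^ n = a ^ (m' * l)) (hab : b * a * b⁻¹ = a ^ r)
    (hgen : Subgroup.closure ({a, b} : Set G) = ⊤)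
    (hord : ∀ x : ℤ, a ^ x = 1 → (m : ℤ) ∣ x)
    (E : Type) [Group E] [Finite E] (f : E →* G) (hf : Cfsg.IsStemExtension f) :
    ∃ π : Multiplicative (ZMod k) →* f.ker, Function.Surjective π := by
  classical
  obtain ⟨hs, hcent, hcomm⟩ := hf
  obtain ⟨x, hx⟩ := hs a
  obtain ⟨y, hy⟩ := hs b
  have hZ : ∀ u, f u = 1 → ∀ g, g * u = u * g := by
    intro u hu g
    exact Subgroup.mem_center_iff.1 (hcent (MonoidHom.mem_ker.2 hu)) g
  let c : E := y * x * y⁻¹ * x⁻¹
  let w : E := y * x * y⁻¹ * (x ^ r)⁻¹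
  have hfw : f w = 1 := by
    simp only [w, map_mul, map_inv, map_pow, hx, hy, hab, mul_inv_cancel]
  have hwc := hZ w hfw
  have hyx : y * x * y⁻¹ = w * x ^ r := by simp only [w]; group
  have hyxc : y * x * y⁻¹ = c * x := by simp only [c]; group
  have hcw : c = w * (x ^ r * x⁻¹) := by
    simp only [c, w]; group
  have hcx : Commute c x := by
    rw [hcw]
    refine Commute.mul_left (hwc x).symm ?_
    exact Commute.mul_left (Commute.pow_left (Commute.refl x) r) (Commute.inv_left (Commute.refl x))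
  have hpow : ∀ i : ℕ, y * x ^ i * y⁻¹ = c ^ i * x ^ i := by
    intro i
    rw [← conj_pow, hyxc, hcx.mul_pow]
  have hfxm : f (x ^ m) = 1 := by rw [map_pow, hx, ha]
  have hcm : c ^ m = 1 := by
    have h1 := hpow m
    have h2 : y * x ^ m * y⁻¹ = x ^ m := by
      rw [hZ _ hfxm y, mul_assoc, mul_inv_cancel, mul_one]
    rw [h2] at h1
    exact (mul_eq_right.mp h1.symm)
  let u₀ : E := y ^ n * (x ^ (m' * l))⁻¹
  have hfu₀ : f u₀ = 1 := by
    simp only [u₀, map_mul, map_inv, map_pow, hx, hy, hb, mul_inv_cancel]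
  have hu₀c := hZ u₀ hfu₀
  have hyn : y ^ n = u₀ * x ^ (m' * l) := by simp only [u₀]; group
  have hct : c ^ (m' * l) = 1 := by
    have h1 := hpow (m' * l)
    have h3 : Commute y (x ^ (m' * l)) := by
      have h4 : x ^ (m' * l) = u₀⁻¹ * y ^ n := by rw [hyn]; group
      rw [h4]
      refine Commute.mul_right ?_ (Commute.pow_right (Commute.refl y) n)
      exact Commute.inv_right (hu₀c y)
    have h2 : y * x ^ (m' * l) * y⁻¹ = x ^ (m' * l) := by
      rw [h3.eq, mul_assoc, mul_inv_cancel, mul_one]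
    rw [h2] at h1
    exact (mul_eq_right.mp h1.symm)
  have hyc : y * c * y⁻¹ = c ^ r := by
    have h1 : y * c * y⁻¹ = (y * (y * x * y⁻¹) * y⁻¹) * (y * x * y⁻¹)⁻¹ := by
      simp only [c]; group
    rw [hyx] at h1
    have h2 : y * (w * x ^ r) * y⁻¹ = w * (y * x ^ r * y⁻¹) := by
      rw [← mul_assoc y, hwc y]; group
    rw [h2, hpow r] at h1
    have h3 : w * (c ^ r * x ^ r) * (w * x ^ r)⁻¹ = w * c ^ r * w⁻¹ := by group
    rw [h3] at h1
    rw [h1, (hwc (c ^ r)).symm, mul_assoc, mul_inv_cancel, mul_one]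
  have hycp : ∀ i : ℕ, y * c ^ i * y⁻¹ = (c ^ r) ^ i := by
    intro i
    rw [← conj_pow, hyc]
  have hsum : ∀ j : ℕ, y ^ j * x * (y ^ j)⁻¹ = c ^ (∑ i ∈ Finset.range j, r ^ i) * x := by
    intro j
    induction j with
    | zero => simp
    | succ j ih =>
      have h1 : y ^ (j + 1) * x * (y ^ (j + 1))⁻¹ = y * (y ^ j * x * (y ^ j)⁻¹) * y⁻¹ := by
        rw [pow_succ']; group
      rw [h1, ih]
      have h2 : y * (c ^ (∑ i ∈ Finset.range j, r ^ i) * x) * y⁻¹ =
          (y * c ^ (∑ i ∈ Finset.range j, r ^ i) * y⁻¹) * (y * x * y⁻¹) := by group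
      rw [h2, hycp, hyxc, ← mul_assoc, ← pow_mul, ← pow_succ]
      congr 2
      rw [Finset.sum_range_succ', Finset.mul_sum]
      simp [pow_succ']
  have hcσ : c ^ (∑ i ∈ Finset.range n, r ^ i) = 1 := by
    have h1 := hsum n
    have h3 : Commute (y ^ n) x := by
      rw [hyn]
      refine Commute.mul_left (hu₀c x).symm ?_
      exact Commute.pow_left (Commute.refl x) _
    have h2 : y ^ n * x * (y ^ n)⁻¹ = x := by
      rw [h3.eq, mul_assoc, mul_inv_cancel, mul_one]
    rw [h2] at h1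
    exact (mul_eq_right.mp h1.symm)
  have hckm : c ^ (m' * k) = 1 := by
    have h1 : orderOf c ∣ m' * l := orderOf_dvd_of_pow_eq_one hct
    have h2 : orderOf c ∣ m' * d := by
      rw [← hmd]; exact orderOf_dvd_of_pow_eq_one hcm
    have h3 : orderOf c ∣ m' * s' := by
      rw [← hσ]; exact orderOf_dvd_of_pow_eq_one hcσ
    have h4 : m' * k = Nat.gcd (m' * l) (Nat.gcd (m' * d) (m' * s')) := by
      rw [hk, Nat.gcd_mul_left, Nat.gcd_mul_left]
    rw [h4]
    exact orderOf_dvd_iff_pow_eq_one.1 (Nat.dvd_gcd h1 (Nat.dvd_gcd h2 h3))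
  -- the commutator subgroup lies in the cyclic group generated by `c`
  let C : Subgroup E := Subgroup.zpowers c
  have hNcomm : ∀ g, Commute g c → g ∈ Subgroup.normalizer (C : Set E) := by
    intro g hg
    rw [Subgroup.mem_normalizer_iff]
    intro h
    constructor
    · rintro ⟨i, rfl⟩
      have h1 : g * (fun i => c ^ i) i * g⁻¹ = c ^ i := by
        show g * c ^ i * g⁻¹ = c ^ i
        rw [(hg.zpow_right i).eq, mul_assoc, mul_inv_cancel, mul_one]
      rw [h1]
      exact ⟨i, rfl⟩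
    · rintro ⟨i, hi⟩
      have hi' : c ^ i = g * h * g⁻¹ := hi
      have h1 : h = g⁻¹ * c ^ i * g := by rw [hi']; group
      have h2 : g⁻¹ * c ^ i * g = c ^ i := by
        have h3 : Commute g⁻¹ (c ^ i) := (hg.zpow_right i).inv_left
        rw [h3.eq, mul_assoc, inv_mul_cancel, mul_one]
      rw [h1, h2]
      exact ⟨i, rfl⟩
  have hcrn : c ^ (r ^ n) = c := by
    have h1 : r ^ n ≡ 1 [MOD orderOf c] := hrn'.of_dvd (orderOf_dvd_of_pow_eq_one hcm)
    have h2 := (pow_eq_pow_iff_modEq (x := c)).2 h1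
    rwa [pow_one] at h2
  have hyinv : y⁻¹ * c * y = c ^ (r ^ (n - 1)) := by
    have h1 : y * c ^ (r ^ (n - 1)) * y⁻¹ = c := by
      rw [hycp, ← pow_mul]
      have h2 : r * r ^ (n - 1) = r ^ n := by
        obtain ⟨n', rfl⟩ : ∃ n', n = n' + 1 := ⟨n - 1, by omega⟩
        simp [pow_succ']
      rw [h2, hcrn]
    have h3 : c ^ (r ^ (n - 1)) = y⁻¹ * (y * c ^ (r ^ (n - 1)) * y⁻¹) * y := by group
    rw [h3, h1]
  have hyN : y ∈ Subgroup.normalizer (C : Set E) := by
    rw [Subgroup.mem_normalizer_iff]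
    intro h
    constructor
    · rintro ⟨i, rfl⟩
      have h1 : y * (fun i => c ^ i) i * y⁻¹ = (c ^ r) ^ i := by
        show y * c ^ i * y⁻¹ = (c ^ r) ^ i
        rw [← conj_zpow, hyc]
      rw [h1]
      exact Subgroup.zpow_mem _ (Subgroup.pow_mem _ (Subgroup.mem_zpowers c) _) _
    · rintro ⟨i, hi⟩
      have hi' : c ^ i = y * h * y⁻¹ := hi
      have h1 : h = y⁻¹ * c ^ i * y := by rw [hi']; group
      have h2 : y⁻¹ * c ^ i * y = (c ^ (r ^ (n - 1))) ^ i := by
        have h3 := conj_zpow (a := y⁻¹) (b := c) (i := i)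
        rw [inv_inv] at h3
        rw [← hyinv, h3]
      rw [h1, h2]
      exact Subgroup.zpow_mem _ (Subgroup.pow_mem _ (Subgroup.mem_zpowers c) _) _
  have hform : ∀ g : E, ∃ (u : E) (i j : ℤ), f u = 1 ∧ g = u * x ^ i * y ^ j := by
    intro g
    obtain ⟨i, j, hij⟩ := normal_form a b m n r hn ha hab hrn hgen (f g)
    refine ⟨g * (x ^ i * y ^ j)⁻¹, i, j, ?_, by group⟩
    rw [map_mul, map_inv, map_mul, map_zpow, map_zpow, hx, hy, hij, mul_inv_cancel]
  have hCn : C.Normal := by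
    rw [← Subgroup.normalizer_eq_top_iff]
    rw [eq_top_iff]
    intro g _
    obtain ⟨u, i, j, hu, rfl⟩ := hform g
    refine Subgroup.mul_mem _ (Subgroup.mul_mem _ (hNcomm u ?_) (Subgroup.zpow_mem _ (hNcomm x hcx.symm) i))
      (Subgroup.zpow_mem _ hyN j)
    exact (hZ u hu c).symm
  have hcC : c ∈ C := Subgroup.mem_zpowers c
  have hcommC : commutator E ≤ C := by
    let q : E →* E ⧸ C := QuotientGroup.mk' C
    have hq : ∀ g, q g = 1 ↔ g ∈ C := fun g => QuotientGroup.eq_one_iff g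
    have hqxy : Commute (q y) (q x) := by
      have h1 : q c = 1 := (hq c).2 hcC
      have h2 : q c = q y * q x * (q y)⁻¹ * (q x)⁻¹ := by
        simp only [c, map_mul, map_inv]
      rw [h1] at h2
      have h3 : q y * q x * (q y)⁻¹ = q x := (mul_inv_eq_one.mp h2.symm)
      exact mul_inv_eq_iff_eq_mul.mp h3
    have hqu : ∀ u, f u = 1 → ∀ g, Commute (q u) (q g) := by
      intro u hu g
      show q u * q g = q g * q u
      rw [← map_mul, ← map_mul, hZ u hu g]
    have hqcomm : ∀ g h, Commute (q g) (q h) := by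
      intro g h
      obtain ⟨u, i, j, hu, rfl⟩ := hform g
      rw [map_mul, map_mul, map_zpow, map_zpow]
      have h1 : Commute (q x ^ i) (q h) := by
        obtain ⟨u', i', j', hu', rfl⟩ := hform h
        rw [map_mul, map_mul, map_zpow, map_zpow]
        refine Commute.mul_right (Commute.mul_right ?_ ?_) ?_
        · have := hqu u' hu' (x ^ i)
          rw [map_zpow] at this
          exact this.symm
        · exact Commute.zpow_zpow (Commute.refl _) _ _
        · exact Commute.zpow_zpow hqxy.symm _ _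
      have h2 : Commute (q y ^ j) (q h) := by
        obtain ⟨u', i', j', hu', rfl⟩ := hform h
        rw [map_mul, map_mul, map_zpow, map_zpow]
        refine Commute.mul_right (Commute.mul_right ?_ ?_) ?_
        · have := hqu u' hu' (y ^ j)
          rw [map_zpow] at this
          exact this.symm
        · exact Commute.zpow_zpow hqxy _ _
        · exact Commute.zpow_zpow (Commute.refl _) _ _
      exact Commute.mul_left (Commute.mul_left (hqu u hu h) h1) h2
    show commutator E ≤ C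
    rw [commutator_def, Subgroup.commutator_le]
    intro g _ h _
    rw [← hq, commutatorElement_def, map_mul, map_mul, map_mul, map_inv, map_inv,
      (hqcomm g h).eq]
    group
  -- the generator of the kernel
  have hfc : f c = a ^ r * a⁻¹ := by
    simp only [c, map_mul, map_inv, hx, hy, hab]
  have hfcz : ∀ i : ℤ, f (c ^ i) = a ^ (((r : ℤ) - 1) * i) := by
    intro i
    rw [map_zpow, hfc, zpow_mul, zpow_sub, zpow_one, zpow_natCast]
  have hrc : (r : ℤ) - 1 = r' * d := by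
    have : ((r - 1 : ℕ) : ℤ) = (r : ℤ) - 1 := by rw [Nat.cast_sub hr]; simp
    rw [← this, hrd]; push_cast; ring
  have hmc : (m : ℤ) = m' * d := by rw [hmd]; push_cast; ring
  have hdpos : (d : ℤ) ≠ 0 := by
    intro h
    rw [h, mul_zero] at hmc
    have : (0 : ℤ) < m := by exact_mod_cast hm
    omega
  have hζK : c ^ m' ∈ f.ker := by
    rw [MonoidHom.mem_ker]
    have h1 := hfcz (m' : ℤ)
    rw [zpow_natCast] at h1
    rw [h1]
    have h2 : ((r : ℤ) - 1) * m' = r' * (m : ℤ) := by rw [hrc, hmc]; ring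
    rw [h2, mul_comm, zpow_mul, zpow_natCast a m, ha, one_zpow]
  let ζ : f.ker := ⟨c ^ m', hζK⟩
  have hζk : ζ ^ k = 1 := by
    apply Subtype.ext
    show (c ^ m') ^ k = 1
    rw [← pow_mul]
    exact hckm
  have hkerform : ∀ u : f.ker, ∃ i : ℤ, u = ζ ^ i := by
    rintro ⟨u, hu⟩
    have hu' : u ∈ C := hcommC (hcomm hu)
    obtain ⟨i, hi⟩ := hu'
    have hi' : c ^ i = u := hi
    have h1 : a ^ (((r : ℤ) - 1) * i) = 1 := by
      rw [← hfcz, hi']
      exact MonoidHom.mem_ker.1 hu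
    have h2 := hord _ h1
    rw [hmc, hrc] at h2
    have h3 : (m' : ℤ) ∣ (r' : ℤ) * i := by
      have h4 : (d : ℤ) * m' ∣ d * ((r' : ℤ) * i) := by
        calc (d : ℤ) * m' = m' * d := mul_comm _ _
          _ ∣ r' * d * i := h2
          _ = d * ((r' : ℤ) * i) := by ring
      exact (mul_dvd_mul_iff_left hdpos).1 h4
    have h5 : IsCoprime (m' : ℤ) (r' : ℤ) := Nat.isCoprime_iff_coprime.mpr hco
    obtain ⟨i', hi''⟩ := h5.dvd_of_dvd_mul_left h3
    refine ⟨i', Subtype.ext ?_⟩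
    show u = (c ^ m') ^ i'
    rw [← hi', hi'', zpow_mul, zpow_natCast]
  let φ₀ : ℤ →+ Additive f.ker := zmultiplesHom (Additive f.ker) (Additive.ofMul ζ)
  have hφ₀ : φ₀ (k : ℤ) = 0 := by
    show ((k : ℤ)) • (Additive.ofMul ζ) = 0
    rw [natCast_zsmul, ← ofMul_pow, hζk]
    rfl
  let φ : ZMod k →+ Additive f.ker := ZMod.lift k ⟨φ₀, hφ₀⟩
  refine ⟨AddMonoidHom.toMultiplicativeLeft φ, ?_⟩
  intro u
  obtain ⟨i, rfl⟩ := hkerform u
  refine ⟨Multiplicative.ofAdd (i : ZMod k), ?_⟩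
  show Additive.toMul (φ (i : ZMod k)) = ζ ^ i
  have h1 : φ (i : ZMod k) = φ₀ i := ZMod.lift_coe (n := k) (A := Additive f.ker) ⟨φ₀, hφ₀⟩ i
  rw [h1]
  show Additive.toMul (i • Additive.ofMul ζ) = ζ ^ i
  rfl

end Cfsg.Agent.Lib.Metacyc
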